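import Cfsg.Agent.Signalizer.Hyperplane
import Cfsg.Agent.Coprime.Basic
import Cfsg.Agent.Constrained.Basic
import Cfsg.Agent.LocalP.ThompsonJ
import Cfsg.Agent.Eq.Def_Local

/-!
The signalizer functor of a `k`-balanced group with solvable cores: in a solvable `p'`-group generated
by the pieces `Δ(H) ∩ C(H)`, `H` a hyperplane of `A`, the centralizer of a hyperplane is its own piece.
-/

set_option autoImplicit false

open Cfsg
open scoped commutatorElement Pointwise

namespace CfsgLib.KBalanced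

variable {G : Type*} [Group G]

/-- `Δ(B) ∩ C(B)`. -/
abbrev piece (p : ℕ) (B : Subgroup G) : Subgroup G :=
  signalizerDelta p B ⊓ Subgroup.centralizer (B : Set G)

/-- The subgroups of index at most `p` of `A` containing `a`. -/
abbrev Hyp (p : ℕ) (A : Subgroup G) (a : G) : Type _ :=
  {H : Subgroup G // H ≤ A ∧ H.relIndex A ∣ p ∧ a ∈ H}

/-- The hypotheses on `A`. -/
structure Data (p k : ℕ) (A : Subgroup G) : Prop where
  hk : 1 ≤ k
  elem : IsElementaryAbelian p A
  large : p ^ (k + 2) ≤ Nat.card A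
  bal : ∀ B ≤ A, p ^ k ≤ Nat.card B → ∀ b ∈ A, b ≠ 1 →
    signalizerDelta p B ⊓ Subgroup.centralizer {b} ≤ centralizerPPrimeCore p b

variable {p k : ℕ} {A : Subgroup G}

theorem le_centralizer_singleton {H : Subgroup G} {a : G} (ha : a ∈ H) :
    Subgroup.centralizer (H : Set G) ≤ Subgroup.centralizer {a} :=
  Subgroup.centralizer_le (Set.singleton_subset_iff.mpr ha)

theorem delta_anti {B B' : Subgroup G} (h : B' ≤ B) : signalizerDelta p B ≤ signalizerDelta p B' :=
  le_iInf fun b => iInf_le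
    (fun a : {a : G // a ∈ B ∧ a ≠ 1} => centralizerPPrimeCore p (a : G)) ⟨b, h b.2.1, b.2.2⟩

theorem delta_le {B : Subgroup G} {b : G} (hb : b ∈ B) (hb1 : b ≠ 1) :
    signalizerDelta p B ≤ centralizerPPrimeCore p b :=
  iInf_le (fun a : {a : G // a ∈ B ∧ a ≠ 1} => centralizerPPrimeCore p (a : G)) ⟨b, hb, hb1⟩

theorem piece_anti {B B' : Subgroup G} (h : B' ≤ B) : piece p B ≤ piece p B' :=
  inf_le_inf (delta_anti h) (Subgroup.centralizer_le h)

theorem conj_core {c b y : G} (hc : c * b = b * c) (hy : y ∈ centralizerPPrimeCore p b) :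
    c * y * c⁻¹ ∈ centralizerPPrimeCore p b := by
  obtain ⟨z, hz, rfl⟩ := hy
  exact ⟨⟨c, Subgroup.mem_centralizer_singleton_iff.mpr hc⟩ * z *
    ⟨c, Subgroup.mem_centralizer_singleton_iff.mpr hc⟩⁻¹, (pPrimeCore_normal p _).conj_mem z hz _, rfl⟩

theorem conj_delta {B : Subgroup G} {c x : G} (hc : ∀ b ∈ B, c * b = b * c)
    (hx : x ∈ signalizerDelta p B) : c * x * c⁻¹ ∈ signalizerDelta p B := by
  rw [signalizerDelta, Subgroup.mem_iInf] at hx ⊢
  exact fun b => conj_core (hc b b.2.1) (hx b)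

theorem conj_centralizer {B : Subgroup G} {c x : G} (hc : ∀ b ∈ B, c * b = b * c)
    (hx : x ∈ Subgroup.centralizer (B : Set G)) : c * x * c⁻¹ ∈ Subgroup.centralizer (B : Set G) := by
  rw [Subgroup.mem_centralizer_iff] at hx ⊢
  intro b hb
  have h1 : Commute b c := (hc b hb).symm
  exact ((h1.mul_right (show Commute b x from hx b hb)).mul_right h1.inv_right).eq

namespace Data

variable (D : Data p k A)
include D

theorem comm {x y : G} (hx : x ∈ A) (hy : y ∈ A) : x * y = y * x :=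
  (CfsgLib.LocalP.isElementaryAbelian_iff.mp D.elem).1 x hx y hy

theorem normalizes_piece {B : Subgroup G} (hB : B ≤ A) :
    A ≤ Subgroup.normalizer (piece p B : Set G) :=
  CfsgLib.Hyperplane.le_normalizer_of_conj_mem fun a ha x hx => Subgroup.mem_inf.mpr
    ⟨conj_delta (fun b hb => D.comm ha (hB hb)) (Subgroup.mem_inf.mp hx).1,
      conj_centralizer (fun b hb => D.comm ha (hB hb)) (Subgroup.mem_inf.mp hx).2⟩

/-- Balance: `Δ(B) ∩ C(B') ≤ Δ(B')`. -/
theorem mem_piece {B B' : Subgroup G} (hB : B ≤ A) (hBc : p ^ k ≤ Nat.card B) (hB' : B' ≤ A) {x : G}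
    (hx : x ∈ signalizerDelta p B) (hc : x ∈ Subgroup.centralizer (B' : Set G)) : x ∈ piece p B' := by
  refine Subgroup.mem_inf.mpr ⟨?_, hc⟩
  rw [signalizerDelta, Subgroup.mem_iInf]
  exact fun b => D.bal B hB hBc b (hB' b.2.1) b.2.2
    (Subgroup.mem_inf.mpr ⟨hx, le_centralizer_singleton b.2.1 hc⟩)

variable [Finite G] [Fact p.Prime]

theorem two_le_card_inf {H H' : Subgroup G} (hH : H ≤ A) (hHi : H.relIndex A ∣ p) (hH' : H' ≤ A)
    (hH'i : H'.relIndex A ∣ p) : p ^ k ≤ Nat.card ↥(H ⊓ H' : Subgroup G) := by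
  have hp : p.Prime := Fact.out
  have h1 := Subgroup.relIndex_mul_relIndex (⊥ : Subgroup G) (H ⊓ H') H' bot_le inf_le_right
  have h2 := Subgroup.relIndex_mul_relIndex (⊥ : Subgroup G) H' A bot_le hH'
  rw [Subgroup.relIndex_bot_left, Subgroup.relIndex_bot_left, Subgroup.inf_relIndex_right] at h1
  rw [Subgroup.relIndex_bot_left, Subgroup.relIndex_bot_left] at h2
  have h3 : H.relIndex H' ≤ p := by
    refine le_trans ?_ (Nat.le_of_dvd hp.pos hHi)
    exact Subgroup.relIndex_le_of_le_right hH' fun h => by simp [h] at hHi; exact hp.ne_zero hHi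
  have h4 : H'.relIndex A ≤ p := Nat.le_of_dvd hp.pos hH'i
  have h5 : p * p * p ^ k ≤ p * p * Nat.card ↥(H ⊓ H' : Subgroup G) := by
    calc p * p * p ^ k = p ^ (k + 2) := by ring
      _ ≤ Nat.card A := D.large
      _ = Nat.card ↥(H ⊓ H' : Subgroup G) * H.relIndex H' * H'.relIndex A := by rw [h1, h2]
      _ ≤ Nat.card ↥(H ⊓ H' : Subgroup G) * p * p := Nat.mul_le_mul (Nat.mul_le_mul_left _ h3) h4
      _ = p * p * Nat.card ↥(H ⊓ H' : Subgroup G) := by ring
  exact Nat.le_of_mul_le_mul_left h5 (Nat.mul_pos hp.pos hp.pos)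

theorem card_hyp {a : G} (H : Hyp p A a) : p ^ k ≤ Nat.card ↥(H : Subgroup G) := by
  have h := D.two_le_card_inf H.2.1 H.2.2.1 H.2.1 H.2.2.1
  rwa [inf_idem] at h

theorem hyp_sup {a : G} {H B : Subgroup G} (hH : H ≤ A) (hHi : H.relIndex A ∣ p) (hB : B ≤ A)
    (ha : a ∈ B) : H ⊔ B ≤ A ∧ (H ⊔ B).relIndex A ∣ p ∧ a ∈ H ⊔ B :=
  ⟨sup_le hH hB, (Subgroup.relIndex_dvd_of_le_left A le_sup_left).trans hHi,
    Subgroup.mem_sup_right ha⟩

/-- An invariant `p'`-group inside `Δ(B) ∩ C(B)` is generated by its parts in hyperplane pieces. -/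
theorem le_iSup_piece {a : G} {B Z : Subgroup G} (hB : B ≤ A) (hBc : p ^ k ≤ Nat.card B) (ha : a ∈ B)
    (hZ : Z ≤ piece p B) (hn : A ≤ Subgroup.normalizer (Z : Set G)) (hp : ¬ p ∣ Nat.card Z) :
    Z ≤ ⨆ H : Hyp p A a, Z ⊓ piece p (H : Subgroup G) := by
  refine (CfsgLib.Hyperplane.le_iSup_centralizer D.elem hp hn).trans (iSup_le fun H => ?_)
  intro x hx
  obtain ⟨hxZ, hxH⟩ := Subgroup.mem_inf.mp hx
  obtain ⟨hxD, hxB⟩ := Subgroup.mem_inf.mp (hZ hxZ)
  have hsup := D.hyp_sup H.2.1 H.2.2 hB ha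
  have hxc : x ∈ Subgroup.centralizer (((H : Subgroup G) ⊔ B : Subgroup G) : Set G) := by
    have hle : (H : Subgroup G) ⊔ B ≤ Subgroup.centralizer ({x} : Set G) :=
      sup_le (fun y hy => Subgroup.mem_centralizer_singleton_iff.mpr (Subgroup.mem_centralizer_iff.mp hxH y hy))
        fun y hy => Subgroup.mem_centralizer_singleton_iff.mpr (Subgroup.mem_centralizer_iff.mp hxB y hy)
    exact Subgroup.mem_centralizer_iff.mpr fun y hy =>
      Subgroup.mem_centralizer_singleton_iff.mp (hle hy)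
  exact le_iSup (fun H : Hyp p A a => Z ⊓ piece p (H : Subgroup G)) ⟨_, hsup⟩
    (Subgroup.mem_inf.mpr ⟨hxZ, D.mem_piece hB hBc hsup.1 hxD hxc⟩)

/-- In a solvable invariant `p'`-group generated by hyperplane pieces, the centralizer of a hyperplane is
contained in its piece. -/
theorem inf_centralizer_le {a : G} :
    ∀ (n : ℕ) (L : Subgroup G), Nat.card L ≤ n → Group.IsSolvable L → ¬ p ∣ Nat.card L →
      A ≤ Subgroup.normalizer (L : Set G) →
      L ≤ (⨆ H : Hyp p A a, L ⊓ piece p (H : Subgroup G)) →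
      ∀ H₀ : Hyp p A a, L ⊓ Subgroup.centralizer ((H₀ : Subgroup G) : Set G) ≤ piece p (H₀ : Subgroup G) := by
  classical
  intro n
  induction n using Nat.strong_induction_on with
  | _ n ih =>
  intro L hn hsol hp hAL hgen H₀
  rcases eq_or_ne L ⊥ with rfl | hne
  · rw [bot_inf_eq]; exact bot_le
  haveI : Nontrivial ↥L := (Subgroup.nontrivial_iff_ne_bot L).mpr hne
  set L' := ⁅L, L⁆ with hL'
  have hL'L : L' ≤ L := Subgroup.commutator_le_self L
  have hlt : Nat.card L' < Nat.card L := by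
    rw [hL', ← Subgroup.map_subtype_commutator, Subgroup.card_map_of_injective L.subtype_injective]
    refine lt_of_le_of_ne (Subgroup.card_le_card_group _) fun h => ?_
    exact (Group.IsSolvable.commutator_lt_top_of_nontrivial (G := ↥L)).ne (Subgroup.eq_top_of_card_eq _ h)
  have hpL' : ¬ p ∣ Nat.card L' := fun h => hp (h.trans (Subgroup.card_dvd_of_le hL'L))
  have hAL' : A ≤ Subgroup.normalizer (L' : Set G) := by
    refine CfsgLib.Hyperplane.le_normalizer_of_conj_mem fun c hc x hx => ?_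
    have h : L'.map (MulAut.conj c).toMonoidHom = L' := by
      have e : L.map (MulAut.conj c).toMonoidHom = L :=
        Subgroup.mem_normalizer_iff_map_conj_eq.mp (hAL hc)
      rw [hL', Subgroup.map_commutator, e]
    rw [← h]
    exact Subgroup.mem_map_of_mem _ hx
  set M := ⨆ H : Hyp p A a, L' ⊓ piece p (H : Subgroup G) with hM
  have hML' : M ≤ L' := iSup_le fun H => inf_le_left
  -- parts of `L'` in pieces of intersections of two hyperplanes lie in `M`
  have hinter : ∀ H H' : Hyp p A a,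
      L' ⊓ piece p ((H : Subgroup G) ⊓ (H' : Subgroup G)) ≤ M := by
    intro H H'
    set B := (H : Subgroup G) ⊓ (H' : Subgroup G)
    refine (D.le_iSup_piece (a := a) (inf_le_left.trans H.2.1)
      (D.two_le_card_inf H.2.1 H.2.2.1 H'.2.1 H'.2.2.1) (Subgroup.mem_inf.mpr ⟨H.2.2.2, H'.2.2.2⟩)
      inf_le_right (CfsgLib.Hyperplane.le_normalizer_of_conj_mem fun c hc x hx => ?_)
      fun h => hpL' (h.trans (Subgroup.card_dvd_of_le inf_le_left))).trans
      (iSup_mono fun H'' => inf_le_inf_right _ inf_le_left)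
    exact Subgroup.mem_inf.mpr ⟨CfsgLib.Hyperplane.conj_mem hAL' hc (Subgroup.mem_inf.mp hx).1,
      CfsgLib.Hyperplane.conj_mem (D.normalizes_piece (inf_le_left.trans H.2.1)) hc
        (Subgroup.mem_inf.mp hx).2⟩
  have hnorm : L ≤ Subgroup.normalizer (M : Set G) := by
    refine hgen.trans (iSup_le fun H' => ?_)
    refine CfsgLib.Hyperplane.le_normalizer_of_conj_mem fun w hw x hx => ?_
    have hle : M ≤ M.comap (MulAut.conj w).toMonoidHom := by
      refine iSup_le fun H n hn => hinter H H' ?_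
      obtain ⟨hwL, hwW⟩ := Subgroup.mem_inf.mp hw
      obtain ⟨hnL, hnW⟩ := Subgroup.mem_inf.mp hn
      have hwB := piece_anti (p := p) (inf_le_right : (H : Subgroup G) ⊓ (H' : Subgroup G) ≤ H') hwW
      have hnB := piece_anti (p := p) (inf_le_left : (H : Subgroup G) ⊓ (H' : Subgroup G) ≤ H) hnW
      refine Subgroup.mem_inf.mpr ⟨?_, mul_mem (mul_mem hwB hnB) (inv_mem hwB)⟩
      have e : w * n * w⁻¹ = ⁅w, n⁆ * n := by rw [commutatorElement_def]; group
      show w * n * w⁻¹ ∈ L'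
      rw [e]
      exact mul_mem (Subgroup.commutator_mem_commutator hwL (hL'L hnL)) hnL
    exact hle hx
  have hconj : ∀ y ∈ L, ∀ m ∈ M, y * m * y⁻¹ ∈ M := fun y hy m hm =>
    (Subgroup.mem_normalizer_iff.mp (hnorm hy) m).mp hm
  have hL'M : L' ≤ M := by
    let R : G → Subgroup G := fun z =>
      { carrier := {y | y ∈ L ∧ ⁅z, y⁆ ∈ M}
        one_mem' := ⟨one_mem _, by rw [commutatorElement_one_right]; exact one_mem _⟩
        mul_mem' := by
          rintro y y' ⟨hy, hy1⟩ ⟨hy', hy1'⟩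
          refine ⟨mul_mem hy hy', ?_⟩
          rw [show ⁅z, y * y'⁆ = ⁅z, y⁆ * (y * ⁅z, y'⁆ * y⁻¹) by
            simp only [commutatorElement_def]; group]
          exact mul_mem hy1 (hconj y hy _ hy1')
        inv_mem' := by
          rintro y ⟨hy, hy1⟩
          refine ⟨inv_mem hy, ?_⟩
          rw [show ⁅z, y⁻¹⁆ = y⁻¹ * ⁅z, y⁆⁻¹ * y⁻¹⁻¹ by simp only [commutatorElement_def]; group]
          exact hconj _ (inv_mem hy) _ (inv_mem hy1) }
    have h1 : ∀ H : Hyp p A a, ∀ w ∈ L ⊓ piece p (H : Subgroup G), L ≤ R w := by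
      intro H w hw
      refine hgen.trans (iSup_le fun H' v hv => ⟨(Subgroup.mem_inf.mp hv).1, hinter H H' ?_⟩)
      obtain ⟨hwL, hwW⟩ := Subgroup.mem_inf.mp hw
      obtain ⟨hvL, hvW⟩ := Subgroup.mem_inf.mp hv
      have hwB := piece_anti (p := p) (inf_le_left : (H : Subgroup G) ⊓ (H' : Subgroup G) ≤ H) hwW
      have hvB := piece_anti (p := p) (inf_le_right : (H : Subgroup G) ⊓ (H' : Subgroup G) ≤ H') hvW
      exact Subgroup.mem_inf.mpr ⟨Subgroup.commutator_mem_commutator hwL hvL,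
        mul_mem (mul_mem (mul_mem hwB hvB) (inv_mem hwB)) (inv_mem hvB)⟩
    refine Subgroup.commutator_le.mpr fun z hz y hy => ?_
    have h2 : L ≤ R z := hgen.trans (iSup_le fun H v hv => ⟨(Subgroup.mem_inf.mp hv).1, by
      rw [← commutatorElement_inv]
      exact inv_mem (h1 H v hv hz).2⟩)
    exact (h2 hy).2
  have hih := ih _ (hlt.trans_le hn) L' le_rfl (CfsgLib.Coprime.isSolvable_of_le hL'L hsol) hpL' hAL'
    hL'M
  -- add the generators one hyperplane at a time
  haveI : Fintype (Hyp p A a) := Fintype.ofFinite _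
  have key : ∀ s : Finset (Hyp p A a),
      (L' ⊔ ⨆ H ∈ s, L ⊓ piece p (H : Subgroup G)) ⊓ Subgroup.centralizer ((H₀ : Subgroup G) : Set G) ≤
        piece p (H₀ : Subgroup G) := by
    intro s
    induction s using Finset.induction_on with
    | empty =>
      have e : (L' ⊔ ⨆ H ∈ (∅ : Finset (Hyp p A a)), L ⊓ piece p (H : Subgroup G)) = L' := by simp
      rw [e]
      exact hih H₀
    | insert H s _ ihs =>
      rw [Finset.iSup_insert, sup_left_comm]
      set Y := L' ⊔ ⨆ H ∈ s, L ⊓ piece p (H : Subgroup G)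
      set U := L ⊓ piece p (H : Subgroup G)
      have hYL : Y ≤ L := sup_le hL'L (iSup₂_le fun H _ => inf_le_left)
      have hLY : L ≤ Subgroup.normalizer (Y : Set G) :=
        CfsgLib.Hyperplane.le_normalizer_of_conj_mem fun w hw x hx => by
          rw [show w * x * w⁻¹ = ⁅w, x⁆ * x by rw [commutatorElement_def]; group]
          exact mul_mem (Subgroup.mem_sup_left (Subgroup.commutator_mem_commutator hw (hYL hx))) hx
      intro x hx
      obtain ⟨hxs, hxc⟩ := Subgroup.mem_inf.mp hx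
      have h1 : x ∈ (U : Set G) * (Y : Set G) := by
        rw [← Subgroup.coe_mul_of_left_le_normalizer_right U Y (inf_le_left.trans hLY)]; exact hxs
      obtain ⟨u, hu, y, hy, rfl⟩ := h1
      simp only [SetLike.mem_coe] at hu hy hxc ⊢
      have hH₀A : (H₀ : Subgroup G) ≤ A := H₀.2.1
      have hAU : A ≤ Subgroup.normalizer (U : Set G) :=
        CfsgLib.Hyperplane.le_normalizer_of_conj_mem fun c hc z hz => Subgroup.mem_inf.mpr
          ⟨CfsgLib.Hyperplane.conj_mem hAL hc (Subgroup.mem_inf.mp hz).1,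
            CfsgLib.Hyperplane.conj_mem (D.normalizes_piece H.2.1) hc (Subgroup.mem_inf.mp hz).2⟩
      have hAY : A ≤ Subgroup.normalizer (Y : Set G) := by
        intro c hc
        rw [Subgroup.mem_normalizer_iff_map_conj_eq, Subgroup.map_sup,
          Subgroup.mem_normalizer_iff_map_conj_eq.mp (hAL' hc)]
        simp only [Subgroup.map_iSup]
        congr 1
        refine iSup_congr fun H' => iSup_congr fun _ => ?_
        exact Subgroup.mem_normalizer_iff_map_conj_eq.mp
          ((CfsgLib.Hyperplane.le_normalizer_of_conj_mem fun c hc z hz => Subgroup.mem_inf.mpr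
            ⟨CfsgLib.Hyperplane.conj_mem hAL hc (Subgroup.mem_inf.mp hz).1,
              CfsgLib.Hyperplane.conj_mem (D.normalizes_piece H'.2.1) hc (Subgroup.mem_inf.mp hz).2⟩ :
            A ≤ Subgroup.normalizer ((L ⊓ piece p (H' : Subgroup G) : Subgroup G) : Set G)) hc)
      have hcomm : ∀ h ∈ (H₀ : Subgroup G), ⁅u, h⁆ ∈ Y ⊓ U := by
        intro h hh
        have hhu : h * u⁻¹ * h⁻¹ ∈ U := CfsgLib.Hyperplane.conj_mem hAU (hH₀A hh) (inv_mem hu)
        refine Subgroup.mem_inf.mpr ⟨?_, by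
          rw [commutatorElement_def]; simpa [mul_assoc] using mul_mem hu hhu⟩
        have hfix : h * (u * y) * h⁻¹ = u * y :=
          mul_inv_eq_iff_eq_mul.mpr (Subgroup.mem_centralizer_iff.mp hxc h hh)
        have e : ⁅u, h⁆ = u * (u⁻¹ * (h * u * h⁻¹))⁻¹ * u⁻¹ := by rw [commutatorElement_def]; group
        have e2 : u⁻¹ * (h * u * h⁻¹) = y * (h * y⁻¹ * h⁻¹) := by
          calc u⁻¹ * (h * u * h⁻¹) = u⁻¹ * (h * (u * y) * h⁻¹) * (h * y⁻¹ * h⁻¹) := by group
            _ = _ := by rw [hfix]; group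
        rw [e, e2]
        exact CfsgLib.Hyperplane.conj_mem hLY (Subgroup.mem_inf.mp hu).1
          (inv_mem (mul_mem hy (CfsgLib.Hyperplane.conj_mem hAY (hH₀A hh) (inv_mem hy))))
      have hcop : (Nat.card ↥(H₀ : Subgroup G)).Coprime (Nat.card ↥(Y ⊓ U : Subgroup G)) := by
        obtain ⟨j, hj⟩ := IsPGroup.iff_card.mp ((CfsgLib.LocalP.isPGroup_of_isElementaryAbelian D.elem).to_le hH₀A)
        rw [hj]
        refine (((Fact.out : p.Prime).coprime_iff_not_dvd).mpr fun h => ?_).pow_left j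
        exact hp (h.trans (Subgroup.card_dvd_of_le (inf_le_left.trans hYL)))
      obtain ⟨m, hm, hmc⟩ := CfsgLib.Coprime.exists_mul_mem_centralizer
        (fun c hc => CfsgLib.Coprime.le_normalizer_inf' (hH₀A.trans hAY) (hH₀A.trans hAU) hc)
        hcop (Or.inl (CfsgLib.Coprime.isSolvable_of_isPGroup
          ((CfsgLib.LocalP.isPGroup_of_isElementaryAbelian D.elem).to_le hH₀A))) hcomm
      obtain ⟨hmY, hmU⟩ := Subgroup.mem_inf.mp hm
      have hcW : m * u ∈ piece p (H₀ : Subgroup G) := D.mem_piece H.2.1 (D.card_hyp H) hH₀A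
        (Subgroup.mem_inf.mp (Subgroup.mem_inf.mp (mul_mem hmU hu)).2).1 hmc
      have hy' : (m * u)⁻¹ * (u * y) ∈ piece p (H₀ : Subgroup G) := by
        refine ihs (Subgroup.mem_inf.mpr ⟨?_, mul_mem (inv_mem hmc) hxc⟩)
        rw [show (m * u)⁻¹ * (u * y) = u⁻¹ * m⁻¹ * u⁻¹⁻¹ * y by group]
        exact mul_mem (CfsgLib.Hyperplane.conj_mem hLY (inv_mem (Subgroup.mem_inf.mp hu).1)
          (inv_mem hmY)) hy
      have := mul_mem hcW hy'
      rwa [mul_inv_cancel_left] at this
  refine le_trans (inf_le_inf_right _ ?_) (key Finset.univ)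
  refine hgen.trans (iSup_le fun H => le_sup_of_le_right ?_)
  exact le_iSup₂ (f := fun H (_ : H ∈ (Finset.univ : Finset (Hyp p A a))) => L ⊓ piece p (H : Subgroup G))
    H (Finset.mem_univ H)

end Data

end CfsgLib.KBalanced
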